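import Cfsg.Agent.TY.C

/-! TY.D: Thompson's theorem on soluble groups with one class of involutions. -/

open Pointwise Cfsg Subgroup H9
open scoped commutatorElement

namespace TY

universe u

def I2 (G : Type*) [Group G] : Prop := ∀ x y : G, x ≠ 1 → x * x = 1 → y ≠ 1 → y * y = 1 → IsConj x y
def Two (G : Type*) [Group G] : Prop := ∃ x y : G, x ≠ y ∧ x ≠ 1 ∧ x * x = 1 ∧ y ≠ 1 ∧ y * y = 1

variable {G : Type*} [Group G]

theorem I2.mem (h : I2 G) {K : Subgroup G} [hK : K.Normal] {x : G} (h1 : x ∈ K) (h2 : x ≠ 1)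
    (h3 : x * x = 1) (y : G) (hy : y * y = 1) : y ∈ K := by
  by_cases e : y = 1
  · rw [e]; exact K.one_mem
  obtain ⟨g, rfl⟩ := isConj_iff.1 (h x y h2 h3 e hy)
  exact hK.conj_mem x h1 g

variable [Finite G]

theorem I2.hZ (h : I2 G) {Q : Subgroup G} [Q.Normal] (hQ : IsPGroup 2 Q) (hb : Q ≠ ⊥) (y : G)
    (hy : y * y = 1) : y ∈ Q ⊓ centralizer (Q : Set G) := by
  haveI : Fact (Nat.Prime 2) := ⟨Nat.prime_two⟩
  obtain ⟨z, z1, z2, z3⟩ := exists_central hQ hb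
  exact h.mem z1 z2 (by rw [← pow_two, z3]) y hy

theorem le_sup_of_syl {p : ℕ} [Fact p.Prime] {C L R : Subgroup G} [C.Normal] (hR : Syl p R L)
    (h : IsPGroup p (L.map (QuotientGroup.mk' C))) : L ≤ C ⊔ R := by
  have := (hR.map (QuotientGroup.mk' C)).eq_of_isPGroup h
  refine (le_comap_map (QuotientGroup.mk' C) L).trans ?_
  rw [← this, comap_map_eq, QuotientGroup.ker_mk', sup_comm]

theorem aux (n : ℕ) : ∀ (G : Type u) [Group G] [Finite G], Nat.card G = n → Group.IsSolvable G →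
    pPrimeCore 2 G = ⊥ → I2 G → Two G → (pCore 2 G).index.Coprime 2 := by
  haveI : Fact (Nat.Prime 2) := ⟨Nat.prime_two⟩
  induction n using Nat.strong_induction_on with
  | _ n ih =>
  intro G _ _ hn hs h0 hI h2
  have hP : H1.PS 2 G := psol_of_solvable inferInstance
  set Q := pCore 2 G with hQd
  have hQ : IsPGroup 2 Q := H1.pCore_isPGroup
  have hC := hP.hh h0
  by_cases hM : pPrimeCore 2 (G ⧸ Q) = ⊥
  · rw [hQd, eq_top_of_Opp hP hM, index_top]; simp
  have hb : Q ≠ ⊥ := fun hb => by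
    have : Q = ⊤ := eq_top_iff.2 fun g _ => hC (mem_centralizer_iff.2 fun x hx => by
      rw [← hQd, hb] at hx; rw [mem_bot.1 hx]; simp)
    obtain ⟨x, -, -, x1, -⟩ := h2
    exact x1 (mem_bot.1 (hb ▸ this ▸ mem_top x))
  have hZ := hI.hZ hQ hb
  set V := Om Q with hVd
  have hV : ∀ x : G, x ∈ V ↔ x * x = 1 := fun x => ⟨fun h => h.2, fun h => ⟨hZ x h, h⟩⟩
  haveI hVn : V.Normal := normalizer_eq_top_iff.1 (eq_top_iff.2 (normalizer_Om le_normalizer_of_normal))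
  have vq : V ≤ Q := fun x hx => hx.1.1
  set C := centralizer (V : Set G) with hCd
  have qc : Q ≤ C := le_centralizer_iff.1 fun x hx => hx.1.2
  have toC : ∀ (K : Subgroup G) [K.Normal] (x : G), x ≠ 1 → x * x = 1 → x ∈ centralizer (K : Set G) →
      K ≤ C := fun K _ x x1 x2 x3 => le_centralizer_iff.1 fun y hy => hI.mem x3 x1 x2 y ((hV y).1 hy)
  set K := (pPrimeCore 2 (G ⧸ Q)).comap (QuotientGroup.mk' Q) with hKd
  have hQK : Q ≤ K := H1.le_comap_mk' _
  have hc : (Q.relIndex K).Coprime 2 := (H1.le_comap_pp inferInstance).1 le_rfl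
  rcases lemA hQ (fun x hx => hZ x (by rwa [pow_two] at hx)) hQK hc with h1 | ⟨x, x1, x2, x3⟩
  · exact h1
  have kc : K ≤ C := toC K x x1 (by rwa [pow_two] at x2) x3
  exfalso
  obtain ⟨S, hS⟩ := exists_syl (p := 2) C
  have qs : Q ≤ S := hS.le_of_le_normalizer hQ qc (Or.inr le_normalizer_of_normal)
  by_cases e : S = Q
  · have a1 : pPrimeCore 2 (G ⧸ C) = ⊥ := eq_bot_iff.2 fun y hy => by
      obtain ⟨y, rfl⟩ := QuotientGroup.mk_surjective y
      refine mem_bot.2 ((QuotientGroup.eq_one_iff y).2 (kc ?_))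
      refine (H1.le_comap_pp (M := (pPrimeCore 2 (G ⧸ C)).comap (QuotientGroup.mk' C))
        inferInstance).2 ?_ hy
      rw [← relIndex_mul_relIndex Q C _ qc (H1.le_comap_mk' _)]
      exact Nat.Coprime.mul_left ((Nat.Prime.coprime_iff_not_dvd Nat.prime_two).2 (e ▸ hS.not_dvd)).symm
        ((H1.le_comap_pp inferInstance).1 le_rfl)
    set L := (pCore 2 (G ⧸ C)).comap (QuotientGroup.mk' C) with hL
    obtain ⟨R, hR⟩ := exists_syl (p := 2) L
    have a2 : L ≤ C ⊔ R := le_sup_of_syl hR (H1.pCore_isPGroup.to_le (map_comap_le _ _))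
    have a3 : V ≤ R := hR.le_of_le_normalizer (hQ.to_le vq) ((vq.trans qc).trans (H1.le_comap_mk' _))
      (Or.inr le_normalizer_of_normal)
    obtain ⟨z, z1, z2, -, z4⟩ := _root_.L.exists_central_mod_pow hR.isP (N := ⊥) (C := V)
      (bot_lt_iff_ne_bot.2 fun e => x1 (mem_bot.1 (e ▸ (hV x).2 (by rwa [pow_two] at x2)))) a3
      le_normalizer_of_normal le_normalizer_of_normal
    have a4 : L ≤ C := toC L z (by simpa using z2) ((hV z).1 z1) (centralizer_anti a2 (by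
      rw [H9.centralizer_sup]
      exact ⟨le_centralizer_iff.1 le_rfl z1, mem_centralizer_iff.2 fun g hg =>
        (commutatorElement_eq_one_iff_mul_comm.1 (mem_bot.1 (z4 g hg))).symm⟩))
    have a5 : pCore 2 (G ⧸ C) = ⊥ := eq_bot_iff.2 fun y hy => by
      obtain ⟨y, rfl⟩ := QuotientGroup.mk_surjective y
      exact mem_bot.2 ((QuotientGroup.eq_one_iff y).2 (a4 hy))
    have a6 := (hP.quot C).hh a1
    rw [a5] at a6
    obtain ⟨x, y, b1, b2, b3, b4, b5⟩ := h2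
    obtain ⟨g, hg⟩ := isConj_iff.1 (hI x y b2 b3 b4 b5)
    have : g ∈ C := (QuotientGroup.eq_one_iff g).1 (mem_bot.1 (a6
      (mem_centralizer_iff.2 fun x hx => by rw [mem_bot.1 hx]; simp)))
    exact b1 (by rw [← hg, ← comm_of_mem_centralizer this ((hV x).2 b3)]; group)
  set N := normalizer (S : Set G) with hN
  have n1 : N ≠ ⊤ := fun h => by
    haveI := normalizer_eq_top_iff.1 h
    exact e (le_antisymm (H1.le_pCore hS.isP) qs)
  have sn : S ≤ N := le_normalizer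
  have vn : V ≤ N := (vq.trans qs).trans sn
  have n2 : ∀ x y : G, x ≠ 1 → x * x = 1 → y ≠ 1 → y * y = 1 → ∃ a ∈ N, a * x * a⁻¹ = y :=
    fun x y b2 b3 b4 b5 => by
      obtain ⟨g, hg⟩ := isConj_iff.1 (hI x y b2 b3 b4 b5)
      obtain ⟨c, hc, a, ha, rfl⟩ := hS.frattini' (g := g) (le_normalizer_of_normal (mem_top g))
      refine ⟨a, ha, ?_⟩
      have := comm_of_mem_centralizer hc (hVn.conj_mem _ ((hV x).2 b3) a)
      rw [← hg]
      calc a * x * a⁻¹ = (a * x * a⁻¹ * c) * c⁻¹ := by group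
        _ = _ := by rw [this]; group
  have n3 : I2 N := fun x y b2 b3 b4 b5 => by
    obtain ⟨a, ha, e⟩ := n2 x y (fun h => b2 (Subtype.ext h)) (congrArg Subtype.val b3)
      (fun h => b4 (Subtype.ext h)) (congrArg Subtype.val b5)
    exact isConj_iff.2 ⟨⟨a, ha⟩, Subtype.ext e⟩
  have n4 : Two N := by
    obtain ⟨x, y, b1, b2, b3, b4, b5⟩ := h2
    exact ⟨⟨x, vn ((hV x).2 b3)⟩, ⟨y, vn ((hV y).2 b5)⟩, fun h => b1 (congrArg Subtype.val h),
      fun h => b2 (congrArg Subtype.val h), Subtype.ext b3, fun h => b4 (congrArg Subtype.val h),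
      Subtype.ext b5⟩
  have n5 : pPrimeCore 2 N = ⊥ := by
    rw [← Op'_eq_bot_iff]
    have b1 := (copA_of_p hS.isP (Op'_cop 2 N)).inf_eq_bot
    have b2 : ⁅S, Op' 2 N⁆ = ⊥ := eq_bot_iff.2 (b1 ▸ le_inf (commutator_le_left' (Op'_le 2 N))
      (commutator_le_right' (sn.trans (le_normalizer_Op' 2 N))))
    have b3 : Op' 2 N ≤ S := ((le_centralizer_iff.1 (commutator_eq_bot_iff_le_centralizer.1 b2)).trans
      (centralizer_anti qs)).trans (hC.trans qs)
    exact eq_bot_iff.2 (b1 ▸ le_inf b3 le_rfl)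
  have n6 := ih _ (by rw [← hn, ← card_top (G := G)]; exact card_lt_of_lt (lt_top_iff_ne_top.2 n1)) N rfl inferInstance n5 n3 n4
  have s1 : S ≤ Op 2 N := le_Op sn le_rfl hS.isP
  have n7 : Op 2 N ≤ C := le_centralizer_iff.1 fun v hv => mem_centralizer_iff.2 fun g hg => by
    have := n3.hZ (Q := pCore 2 N) H1.pCore_isPGroup (fun h => hb (eq_bot_iff.2
      ((qs.trans s1).trans (Op_eq_bot_iff.2 h).le))) ⟨v, vn hv⟩ (Subtype.ext ((hV v).1 hv))
    exact congrArg Subtype.val (mem_centralizer_iff.1 this.2 ⟨g, Op_le 2 N hg⟩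
      (by rw [← subgroupOf_Op]; exact hg))
  have n8 : (S.relIndex N).Coprime 2 := by
    rwa [← hS.maximal (Op_p 2 N) n7 s1, relIndex, subgroupOf_Op]
  obtain ⟨A, a1, -, a3, a4⟩ := H1.exists_complement_rel sn le_rfl (H1.isPGroup_coprime hS.isP n8)
  have htr : ∀ x y : G, x ≠ 1 → x * x = 1 → y ≠ 1 → y * y = 1 → ∃ a ∈ A, a * x * a⁻¹ = y :=
    fun x y b2 b3 b4 b5 => by
      obtain ⟨g, hg, e⟩ := n2 x y b2 b3 b4 b5
      rw [← a3] at hg
      obtain ⟨a, ha, s, hs, rfl⟩ := (mem_sup_of_le_normalizer a1).1 hg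
      refine ⟨a, ha, ?_⟩
      have := comm_of_mem_centralizer (hS.le hs) ((hV x).2 b3)
      rw [← e]
      calc a * x * a⁻¹ = a * (x * s) * s⁻¹ * a⁻¹ := by group
        _ = _ := by rw [this]; group
  obtain ⟨D, dn, d1, d2, d3, d4, d5⟩ := exists_D hQ hC hZ
  have st : St Q V D := ⟨hQ, hV, fun x hx => hx.1.2, d2, d1, d3, d4, d5⟩
  set π := QuotientGroup.mk' Q with hπ
  set E := Om (S.map π) with hE
  have e1 : E ≤ S.map π := fun x hx => hx.1.1
  have e2 : IsPGroup 2 E := (hS.isP.map π).to_le e1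
  have t1 : E.comap π ≤ S := (comap_mono e1).trans (by
    rw [comap_map_eq, hπ, QuotientGroup.ker_mk']; exact sup_le le_rfl qs)
  obtain ⟨B, b1, b2, b3⟩ : ∃ B ≤ E, B.relIndex E ∣ 2 ∧
      ¬ pPrimeCore 2 (G ⧸ Q) ⊓ centralizer (B : Set (G ⧸ Q)) ≤ ⊥ := by
    by_contra hc
    push Not at hc
    exact hM (eq_bot_iff.2 (H1.le_of_centralizer_hyperplane_le (p := 2) (A := E)
      ⟨⟨fun a b => Subtype.ext (comm_of_mem_centralizer b.2.1.2 a.2.1.1)⟩⟩
      (fun a ha => by rw [pow_two]; exact ha.2) le_normalizer_of_normal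
      (H1.isPGroup_coprime e2 H1.pPrimeCore_coprime) hc))
  obtain ⟨y, ⟨y1, y2⟩, y3⟩ := SetLike.not_le_iff_exists.1 b3
  obtain ⟨y, rfl⟩ := QuotientGroup.mk_surjective y
  have y4 : (orderOf (y : G ⧸ Q)).Coprime 2 :=
    H1.pPrimeCore_coprime.coprime_dvd_left (orderOf_dvd_natCard _ y1)
  refine st.core (T := E.comap π) (T₁ := B.comap π) (A := A) (hS.isP.to_le t1) (comap_mono b1)
    (H1.le_comap_mk' _) ?_ (t1.trans hS.le) ?_ ?_ (a4 ▸ n8) htr h2 (y := y ^ Nat.card Q) ?_ ?_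
    (kc (pow_mem (show y ∈ K from y1) _)) (pow_mem (mem_Cm.2 fun u (hu : u ∈ B.comap π) => (mem_centralizer_iff.1 y2 (π u) hu).symm) _)
  · intro s hs t ht s1 t1
    rcases (Nat.dvd_prime Nat.prime_two).1 b2 with h | h
    · exact absurd (relIndex_eq_one.1 h hs) s1
    · exact (mul_mem_iff_of_index_two (H := B.subgroupOf E) h (a := ⟨π t, ht⟩⁻¹) (b := ⟨π s, hs⟩)).2
        (by simp only [inv_mem_iff, mem_subgroupOf]; exact iff_of_false t1 s1)
  · intro h
    haveI : (Cm V D).Normal := normalizer_eq_top_iff.1 (eq_top_iff.2 (normalizer_Cm le_normalizer_of_normal))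
    have c1 : E.comap π ≤ Q := (le_inf h (t1.trans hS.le)).trans (H1.le_pCore st.two)
    obtain ⟨z, z1, z2, z3⟩ := exists_central (hS.isP.map π) fun h' => e (le_antisymm (by
      rwa [Subgroup.map_eq_bot_iff, hπ, QuotientGroup.ker_mk'] at h') qs)
    obtain ⟨z, rfl⟩ := QuotientGroup.mk_surjective z
    exact z2 ((QuotientGroup.eq_one_iff z).2 (c1 (show π z ∈ E from ⟨z1, by rwa [pow_two] at z3⟩)))
  · exact (le_comap_map π A).trans (comap_le_normalizer_comap _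
      (normalizer_Om (map_le_normalizer_map _ a1)))
  · intro h
    have c1 : orderOf (y : G ⧸ Q) ∣ Nat.card Q :=
      orderOf_dvd_of_pow_eq_one (by rw [← QuotientGroup.mk_pow, h]; rfl)
    exact y3 (mem_bot.2 (orderOf_eq_one_iff.1
      ((H1.isPGroup_coprime hQ y4).symm.eq_one_of_dvd c1)))
  · refine Nat.coprime_two_right.1 (y4.coprime_dvd_left (orderOf_dvd_of_pow_eq_one ?_))
    exact lift_pow y (pow_orderOf_eq_one _)

theorem lift_inv {N : Subgroup G} [N.Normal] (hN : (Nat.card N).Coprime 2) (y : G ⧸ N) (hy : y * y = 1) :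
    ∃ x : G, x * x = 1 ∧ (x : G ⧸ N) = y := by
  obtain ⟨x, rfl⟩ := QuotientGroup.mk_surjective y
  refine ⟨x ^ Nat.card N, by rw [← pow_two]; exact lift_pow x (by rwa [pow_two]), ?_⟩
  obtain ⟨k, hk⟩ := Nat.coprime_two_right.1 hN
  rw [QuotientGroup.mk_pow, hk, pow_succ, pow_mul, pow_two, hy, one_pow, one_mul]

theorem I2.quot (h : I2 G) {N : Subgroup G} [N.Normal] (hN : (Nat.card N).Coprime 2) : I2 (G ⧸ N) := by
  intro x y x1 x2 y1 y2
  obtain ⟨x, a1, rfl⟩ := lift_inv hN x x2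
  obtain ⟨y, a2, rfl⟩ := lift_inv hN y y2
  exact (QuotientGroup.mk' N).map_isConj (h x y (fun e => x1 (by rw [e]; rfl)) a1
    (fun e => y1 (by rw [e]; rfl)) a2)

theorem main (hs : Group.IsSolvable G) (S : Sylow 2 G) (hI : I2 G) (h2 : Two S) :
    PLengthLE 2 1 G ∧ ∀ x y : S, x ≠ 1 → x * x = 1 → y ≠ 1 → y * y = 1 →
      ∃ a ∈ normalizer ((S : Subgroup G) : Set G), a * x * a⁻¹ = y := by
  haveI : Fact (Nat.Prime 2) := ⟨Nat.prime_two⟩
  set O := pPrimeCore 2 G with hO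
  have hc : (Nat.card O).Coprime 2 := H1.pPrimeCore_coprime
  have hd := (copA_of_p S.isPGroup' hc).inf_eq_bot
  have inj : ∀ x ∈ (S : Subgroup G), ∀ y ∈ (S : Subgroup G), (x : G ⧸ O) = y → x = y := fun x hx y hy e =>
    inv_mul_eq_one.1 (mem_bot.1 (hd ▸ (⟨(S : Subgroup G).mul_mem ((S : Subgroup G).inv_mem hx) hy, QuotientGroup.eq.1 e⟩ :
      x⁻¹ * y ∈ (S : Subgroup G) ⊓ O)))
  have h3 : Two (G ⧸ O) := by
    obtain ⟨x, y, b1, b2, b3, b4, b5⟩ := h2
    exact ⟨(x : G), (y : G), fun e => b1 (Subtype.ext (inj _ x.2 _ y.2 e)),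
      fun e => b2 (Subtype.ext (inj _ x.2 _ (one_mem _) e)),
      congrArg (QuotientGroup.mk' O) (congrArg Subtype.val b3),
      fun e => b4 (Subtype.ext (inj _ y.2 _ (one_mem _) e)),
      congrArg (QuotientGroup.mk' O) (congrArg Subtype.val b5)⟩
  have h4 := aux _ (G ⧸ O) rfl inferInstance H1.pPrimeCore_quotient_pPrimeCore (hI.quot hc) h3
  refine ⟨(H1.ch_of_coprime hc).pl (pl1_of_index H1.pCore_isPGroup h4), fun x y x1 x2 y1 y2 => ?_⟩
  set L := (pCore 2 (G ⧸ O)).comap (QuotientGroup.mk' O) with hL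
  have sl : (S : Subgroup G) ≤ L := H1.le_of_coprime_index (H1.isPGroup_coprime S.isPGroup' (by
    rwa [hL, index_comap_of_surjective _ (QuotientGroup.mk'_surjective O)]))
  have hS : Syl 2 (S : Subgroup G) L := (syl_top_of_sylow S).mono sl le_top
  obtain ⟨g, hg⟩ := isConj_iff.1 (hI x y (fun h => x1 (Subtype.ext h)) (congrArg Subtype.val x2)
    (fun h => y1 (Subtype.ext h)) (congrArg Subtype.val y2))
  obtain ⟨l, hl, n, hn, rfl⟩ := hS.frattini' (g := g) (le_normalizer_of_normal (mem_top g))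
  obtain ⟨o, ho, s, hs', rfl⟩ := (mem_sup_of_le_normalizer' le_normalizer_of_normal).1
    (le_sup_of_syl (C := O) hS (H1.pCore_isPGroup.to_le (map_comap_le _ _)) hl)
  have h5 := mul_mem (le_normalizer hs') hn
  refine ⟨s * n, h5, inj _ ((mem_normalizer_iff.1 h5 _).1 x.2) _ y.2 ?_⟩
  rw [← hg]
  simp [(QuotientGroup.eq_one_iff o).2 ho, mul_assoc]

theorem homocyclic {A : Type*} [CommGroup A] [Finite A] (hA : IsPGroup 2 A)
    (h : ∀ x y : A, x ≠ 1 → x * x = 1 → y ≠ 1 → y * y = 1 → ∃ a : MulAut A, a x = y) :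
    ∃ m r : ℕ, Nonempty (A ≃* (Fin r → Multiplicative (ZMod (2 ^ m)))) := by
  classical
  haveI : Fact (Nat.Prime 2) := ⟨Nat.prime_two⟩
  obtain ⟨ι, _, n, h1, ⟨e⟩⟩ := CommGroup.equiv_prod_multiplicative_zmod_of_finite A
  set g : ι → A := fun i => e.symm (Pi.mulSingle i (Multiplicative.ofAdd 1)) with hg
  have g1 : ∀ i m, (e (g i ^ m)) i = 1 ↔ n i ∣ m := fun i m => by
    rw [map_pow, hg, MulEquiv.apply_symm_apply, Pi.pow_apply, Pi.mulSingle_eq_same,
      ← orderOf_dvd_iff_pow_eq_one, orderOf_ofAdd_eq_addOrderOf, ZMod.addOrderOf_one]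
  have g2 : ∀ i, g i ^ n i = 1 := fun i => e.injective (by
    rw [map_pow, hg, MulEquiv.apply_symm_apply, ← Pi.mulSingle_pow, map_one e, ← ofAdd_nsmul]
    simp)
  have g3 : ∀ i, ∃ k, n i = 2 ^ (k + 1) := fun i => by
    obtain ⟨j, hj⟩ := hA (g i)
    obtain ⟨k, -, hk⟩ := (Nat.dvd_prime_pow Nat.prime_two).1 ((g1 i _).1 (by rw [hj]; simp))
    rcases k with _ | k
    · exact absurd (h1 i) (by rw [hk]; simp)
    · exact ⟨k, hk⟩
  choose k hk using g3
  have g4 : ∀ i, (e (g i ^ 2 ^ k i)) i ≠ 1 := fun i h' => by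
    have := (g1 i _).1 h'
    rw [hk, Nat.pow_dvd_pow_iff_le_right one_lt_two] at this
    omega
  have g5 : ∀ i, g i ^ 2 ^ k i * g i ^ 2 ^ k i = 1 := fun i => by
    rw [← pow_add, ← mul_two, ← pow_succ, ← hk, g2]
  have g6 : ∀ i j, k i ≤ k j := fun i j => by
    obtain ⟨a, ha⟩ := h _ _ (fun h' => g4 i (by rw [h']; simp)) (g5 i)
      (fun h' => g4 j (by rw [h']; simp)) (g5 j)
    by_contra hc
    refine g4 j ?_
    haveI : NeZero (n j) := ⟨by have := h1 j; omega⟩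
    rw [← ha, map_pow, map_pow, Pi.pow_apply, ← orderOf_dvd_iff_pow_eq_one]
    refine (_root_.orderOf_dvd_natCard _).trans ?_
    rw [Nat.card_congr Multiplicative.toAdd, Nat.card_zmod, hk]
    exact pow_dvd_pow 2 (by omega)
  obtain ⟨m, hm⟩ : ∃ m, ∀ i, n i = 2 ^ m := by
    rcases isEmpty_or_nonempty ι with h' | ⟨⟨i⟩⟩
    · exact ⟨0, fun i => h'.elim i⟩
    · exact ⟨k i + 1, fun j => by rw [hk, le_antisymm (g6 j i) (g6 i j)]⟩
  obtain rfl : n = fun _ => 2 ^ m := funext hm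
  exact ⟨m, Fintype.card ι, ⟨e.trans (MulEquiv.arrowCongr (Fintype.equivFin ι) (MulEquiv.refl _))⟩⟩

end TY
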