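import Cfsg.Agent.H1.PLen
import Cfsg.Agent.H1.SZ
import Cfsg.Agent.H1.Generation
import Cfsg.Agent.H9.Cop
import Cfsg.Agent.H9.Qd
import Cfsg.Agent.L.PG2

/-! TY.A: p-length one from transitivity on subgroups of order `p` (Gaschütz-Yen), common lemmas. -/

open Pointwise Cfsg Subgroup H9
open scoped commutatorElement

namespace TY

variable {G : Type*} [Group G] [Finite G] {p : ℕ} [hp : Fact p.Prime]

theorem lemA {Q K : Subgroup G} [Q.Normal] [K.Normal] (hQ : IsPGroup p Q)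
    (hZ : ∀ x : G, x ^ p = 1 → x ∈ Q ⊓ centralizer (Q : Set G)) (hQK : Q ≤ K)
    (hc : (Q.relIndex K).Coprime p) :
    Q.index.Coprime p ∨ ∃ x : G, x ≠ 1 ∧ x ^ p = 1 ∧ x ∈ centralizer (K : Set G) := by
  obtain ⟨H, h1, h2, h3, h4⟩ := H1.exists_complement_rel hQK le_normalizer_of_normal
    (H1.isPGroup_coprime hQ hc)
  have hsup : Q ⊔ normalizer (H : Set G) = ⊤ := by
    refine eq_top_iff.2 fun g _ => ?_
    haveI := hQ.isNilpotent
    obtain ⟨n, hn, e⟩ := H1.exists_conj_le_of_solvable_right (A := H) (N := Q) inferInstance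
      le_normalizer_of_normal h2 (B := cj g H)
      (by rw [h3, ← cj_eq_of_normal g K]; exact cj_mono g h1)
      (by rw [card_cj, h4]; exact (H1.isPGroup_coprime hQ hc).symm)
    rw [← cj_eq_smul, ← cj_mul] at e
    have := mul_mem_sup (Q.inv_mem hn) (mem_normalizer_of_cj_le e)
    simpa using this
  by_cases hd : p ∣ Nat.card (normalizer (H : Set G))
  · right
    obtain ⟨x, hx⟩ := exists_prime_orderOf_dvd_card' p hd
    have h5 : (x : G) ^ p = 1 := by
      rw [← hx, ← Subgroup.coe_pow, pow_orderOf_eq_one]; rfl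
    refine ⟨x, fun e => ?_, h5, ?_⟩
    · have : x = 1 := Subtype.ext e
      rw [this, orderOf_one] at hx
      exact hp.out.one_lt.ne hx
    · rw [← h3, H9.centralizer_sup]
      refine ⟨mem_centralizer_iff.2 fun h hh => ?_, (hZ _ h5).2⟩
      have a1 : (x : G) * h * (x : G)⁻¹ * h⁻¹ ∈ H ⊓ Q :=
        ⟨H.mul_mem ((mem_normalizer_iff.1 x.2 h).1 hh) (H.inv_mem hh), by
          have := Q.mul_mem (hZ _ h5).1 (Subgroup.Normal.conj_mem inferInstance _ (Q.inv_mem (hZ _ h5).1) h)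
          simpa [mul_assoc] using this⟩
      rw [h2, mem_bot] at a1
      calc h * x = ((x : G) * h * (x : G)⁻¹ * h⁻¹) * (h * x) := by rw [a1, one_mul]
        _ = x * h := by group
  · left
    rw [← relIndex_top_right, ← hsup, relIndex_sup_left]
    exact ((Nat.Prime.coprime_iff_not_dvd hp.out).2 hd).symm.coprime_dvd_left (relIndex_dvd_card _ _)

theorem pl1_of_index {Q : Subgroup G} [hn : Q.Normal] (hQ : IsPGroup p Q) (h : Q.index.Coprime p) :
    PLengthLE p 1 G := by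
  refine H1.pl_iff.2 (H1.Ch.pp (H1.Ch.pw H1.Ch.refl hn bot_le ?_) inferInstance le_top (by simpa using h))
  obtain ⟨m, hm⟩ := IsPGroup.iff_card.1 hQ
  exact ⟨m, by rw [relIndex_bot_left, hm]⟩

omit hp in
theorem lift_pow {N : Subgroup G} [N.Normal] (y : G) (hy : (y : G ⧸ N) ^ p = 1) :
    (y ^ Nat.card N) ^ p = 1 := by
  rw [← pow_mul, mul_comm, pow_mul]
  have : y ^ p ∈ N := by rwa [← QuotientGroup.eq_one_iff, QuotientGroup.mk_pow]
  exact congrArg Subtype.val (pow_card_eq_one' (x := (⟨_, this⟩ : N)))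

omit [Finite G] in
theorem mem_of_pow_mem {K : Subgroup G} {y : G} {m : ℕ} (hy : y ^ p = 1) (hm : m.Coprime p)
    (h : y ^ m ∈ K) : y ∈ K := by
  obtain ⟨k, hk⟩ := exists_pow_eq_self_of_coprime (x := y) (n := m)
    (hm.coprime_dvd_right (orderOf_dvd_of_pow_eq_one hy))
  exact hk ▸ K.pow_mem h k

/-- the quotient by `O_p` has a nontrivial `O_{p'}` unless it is trivial -/
theorem eq_top_of_Opp (h : H1.PS p G) (h1 : pPrimeCore p (G ⧸ pCore p G) = ⊥) : pCore p G = ⊤ := by
  have := (h.quot (pCore p G)).hh h1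
  rw [H1.pCore_quotient_pCore] at this
  refine eq_top_iff.2 fun g _ => (QuotientGroup.eq_one_iff g).1 (mem_bot.1 (this ?_))
  exact mem_centralizer_iff.2 fun x hx => by rw [mem_bot.1 hx]; simp

/-- every characteristic subgroup with an element of order `p` has them all -/
def T (p : ℕ) (G : Type*) [Group G] : Prop :=
  ∀ K : Subgroup G, K.Characteristic → ∀ x ∈ K, x ≠ 1 → x ^ p = 1 → ∀ y : G, y ^ p = 1 → y ∈ K

theorem T.quot (h : T p G) : T p (G ⧸ pPrimeCore p G) := by
  intro K hK x hx h1 h2 y h3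
  obtain ⟨x, rfl⟩ := QuotientGroup.mk_surjective x
  obtain ⟨y, rfl⟩ := QuotientGroup.mk_surjective y
  have hm := H1.pPrimeCore_coprime (p := p) (G := G)
  have := h (K.comap (QuotientGroup.mk' _)) (Subgroup.Characteristic.comap_quotient_mk hK)
    (x ^ Nat.card (pPrimeCore p G)) (pow_mem (show x ∈ K.comap (QuotientGroup.mk' _) from hx) _)
    (fun e => h1 (mem_bot.1 (mem_of_pow_mem h2 hm (by rw [← QuotientGroup.mk_pow, e]; exact one_mem _))))
    (lift_pow x h2) _ (lift_pow y h3)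
  exact mem_of_pow_mem h3 hm this

theorem exists_central {Q : Subgroup G} (hQ : IsPGroup p Q) (h : Q ≠ ⊥) :
    ∃ x ∈ Q ⊓ centralizer (Q : Set G), x ≠ 1 ∧ x ^ p = 1 := by
  obtain ⟨x, h1, h2, h3, h4⟩ := L.exists_central_mod_pow hQ (bot_lt_iff_ne_bot.2 h) le_rfl
    le_normalizer_of_normal le_normalizer
  refine ⟨x, ⟨h1, mem_centralizer_iff.2 fun g hg => ?_⟩, by simpa using h2, by simpa using h3⟩
  exact (commutatorElement_eq_one_iff_mul_comm.1 (mem_bot.1 (h4 g hg))).symm

theorem pl1_of_T_aux (hp2 : p ≠ 2) (h : H1.PS p G) (h0 : pPrimeCore p G = ⊥) (hT : T p G) :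
    PLengthLE p 1 G := by
  set Q := pCore p G with hQd
  have hQ : IsPGroup p Q := H1.pCore_isPGroup
  have hC := h.hh h0
  by_cases hb : Q = ⊥
  · refine pl1_of_index hQ ?_
    have : Q = ⊤ := eq_top_iff.2 fun g _ => hC (mem_centralizer_iff.2 fun x hx => by
      rw [← hQd, hb] at hx; rw [mem_bot.1 hx]; simp)
    rw [this, index_top]; simp
  obtain ⟨z, z1, z2, z3⟩ := exists_central hQ hb
  have hZ := hT (Q ⊓ centralizer (Q : Set G)) inferInstance z z1 z2 z3
  set K := (pPrimeCore p (G ⧸ Q)).comap (QuotientGroup.mk' Q) with hKd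
  haveI hKc : K.Characteristic := Subgroup.Characteristic.comap_quotient_mk inferInstance
  have hQK : Q ≤ K := H1.le_comap_mk' _
  have hc : (Q.relIndex K).Coprime p := (H1.le_comap_pp inferInstance).1 le_rfl
  rcases lemA hQ hZ hQK hc with h1 | ⟨x, x1, x2, x3⟩
  · exact pl1_of_index hQ h1
  have hZK := hT (centralizer (K : Set G)) inferInstance x x3 x1 x2
  obtain ⟨H, h1, h2, h3, h4⟩ := H1.exists_complement_rel hQK le_normalizer_of_normal
    (H1.isPGroup_coprime hQ hc)
  have h5 : Q ≤ centralizer (H : Set G) := L.le_centralizer_of_omega_odd hp2 (h4 ▸ hc) hQ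
    le_normalizer_of_normal ((closure_le _).2 fun y hy => centralizer_anti h1 (hZK y hy.2))
  have h6 : K ≤ Q := h3 ▸ sup_le ((le_centralizer_iff.1 h5).trans hC) le_rfl
  have h7 : pPrimeCore p (G ⧸ Q) = ⊥ := eq_bot_iff.2 fun y hy => by
    obtain ⟨y, rfl⟩ := QuotientGroup.mk_surjective y
    exact mem_bot.2 ((QuotientGroup.eq_one_iff y).2 (h6 hy))
  refine pl1_of_index hQ ?_
  rw [hQd, eq_top_of_Opp h h7, index_top]; simp

theorem pl1_of_T (hp2 : p ≠ 2) (h : H1.PS p G) (hT : T p G) : PLengthLE p 1 G :=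
  (H1.ch_of_coprime H1.pPrimeCore_coprime).pl
    (pl1_of_T_aux hp2 (h.quot _) H1.pPrimeCore_quotient_pPrimeCore hT.quot)

end TY
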