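import Cfsg.Agent.TY.A

/-! TY.B: Thompson's theorem on soluble groups with one class of involutions: the core argument. -/

open Pointwise Cfsg Subgroup H9
open scoped commutatorElement

namespace TY

variable {G : Type*} [Group G]

/-- involutions of the centre -/
def Om (H : Subgroup G) : Subgroup G where
  carrier := {x | x ∈ H ⊓ centralizer (H : Set G) ∧ x * x = 1}
  one_mem' := ⟨one_mem _, mul_one 1⟩
  mul_mem' := fun {a b} ha hb => ⟨mul_mem ha.1 hb.1, by
    have : b * a = a * b := comm_of_mem_centralizer ha.1.2 hb.1.1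
    calc a * b * (a * b) = a * (b * a) * b := by group
      _ = (a * a) * (b * b) := by rw [this]; group
      _ = 1 := by rw [ha.2, hb.2, mul_one]⟩
  inv_mem' := fun {a} ha => ⟨inv_mem ha.1, by rw [← mul_inv_rev, ha.2, inv_one]⟩

theorem mem_Om {H : Subgroup G} {x : G} : x ∈ Om H ↔ x ∈ H ⊓ centralizer (H : Set G) ∧ x * x = 1 :=
  Iff.rfl

theorem normalizer_Om {X H : Subgroup G} (h : X ≤ normalizer (H : Set G)) :
    X ≤ normalizer (Om H : Set G) :=
  le_normalizer_of_cj_le fun g hg x hx => by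
    rw [mem_cj] at hx
    refine ⟨by simpa [mul_assoc] using (conj_mem_of_le_normalizer
      (normalizer_inf h (normalizer_centralizer h)) hg hx.1), ?_⟩
    calc x * x = g * ((g⁻¹ * x * g) * (g⁻¹ * x * g)) * g⁻¹ := by group
      _ = 1 := by rw [hx.2]; group

/-- elements commuting with `U` modulo `V` -/
def Cm (V : Subgroup G) [V.Normal] (U : Subgroup G) : Subgroup G :=
  (centralizer (U.map (QuotientGroup.mk' V) : Set (G ⧸ V))).comap (QuotientGroup.mk' V)

theorem mem_Cm {V : Subgroup G} [V.Normal] {U : Subgroup G} {x : G} :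
    x ∈ Cm V U ↔ ∀ u ∈ U, (x : G ⧸ V) * u = u * x :=
  ⟨fun h u hu => (mem_centralizer_iff.1 h _ (mem_map_of_mem _ hu)).symm, fun h =>
    mem_centralizer_iff.2 (by rintro _ ⟨u, hu, rfl⟩; exact (h u hu).symm)⟩

theorem comm_mem_iff {V : Subgroup G} [V.Normal] {x u : G} :
    ⁅x, u⁆ ∈ V ↔ (x : G ⧸ V) * u = u * x := by
  rw [← QuotientGroup.eq_one_iff, ← commutatorElement_eq_one_iff_mul_comm]; rfl

theorem normalizer_Cm {V : Subgroup G} [V.Normal] {U X : Subgroup G} (h : X ≤ normalizer (U : Set G)) :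
    X ≤ normalizer (Cm V U : Set G) :=
  (le_comap_map _ X).trans (comap_le_normalizer_comap _
    (normalizer_centralizer (map_le_normalizer_map _ h)))

theorem le_Cm {V : Subgroup G} [V.Normal] (U : Subgroup G) : V ≤ Cm V U := fun x hx =>
  mem_Cm.2 fun u _ => by rw [(QuotientGroup.eq_one_iff x).2 hx]; simp

theorem p4 (x : G) : x ^ 4 = x * x * (x * x) := by
  rw [show 4 = 2 + 2 from rfl, pow_add, pow_two]

variable [Finite G]

theorem exists_D {Q : Subgroup G} [Q.Normal] (hQ : IsPGroup 2 Q) (hC : centralizer (Q : Set G) ≤ Q)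
    (hZ : ∀ x : G, x * x = 1 → x ∈ Q ⊓ centralizer (Q : Set G)) :
    ∃ D : Subgroup G, D.Normal ∧ D ≤ Q ∧ Om Q ≤ D ∧ (∀ d ∈ D, d * d ∈ Om Q) ∧
      (∀ d ∈ D, ∀ q ∈ Q, ⁅d, q⁆ ∈ Om Q) ∧
      ∀ y : G, Odd (orderOf y) → D ≤ centralizer (zpowers y : Set G) → y = 1 := by
  haveI : Fact (Nat.Prime 2) := ⟨Nat.prime_two⟩
  obtain ⟨C, c1, c2, c3, c4, c5⟩ := L.exists_critical_of hQ
  haveI hCn : C.Normal := normalizer_eq_top_iff.1 (eq_top_iff.2 (le_normalizer_of_normal.trans c2))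
  have k1 : ∀ d ∈ C, d ^ 4 = 1 → ∀ q ∈ Q, ⁅d, q⁆ * ⁅d, q⁆ = 1 := fun d hd h4 q hq => by
    have a1 : d * ⁅d, q⁆ = ⁅d, q⁆ * d :=
      comm_of_mem_centralizer (c3 (commutator_mem_commutator hd hq)).2 hd
    have a2 : q * (d * d) = (d * d) * q :=
      comm_of_mem_centralizer (hZ (d * d) (by rw [← h4, p4])).2 hq
    calc ⁅d, q⁆ * ⁅d, q⁆ = (⁅d, q⁆ * d) * q * d⁻¹ * q⁻¹ := by simp only [commutatorElement_def]; group
      _ = (d * d) * q * (d * d)⁻¹ * q⁻¹ := by rw [← a1]; simp only [commutatorElement_def]; group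
      _ = 1 := by rw [← a2]; group
  let D : Subgroup G :=
    { carrier := {x | x ∈ C ∧ x ^ 4 = 1}
      one_mem' := ⟨one_mem _, one_pow 4⟩
      mul_mem' := fun {a b} ha hb => ⟨mul_mem ha.1 hb.1, by
        have za := hZ (a * a) (by rw [← ha.2, p4])
        have zb := hZ (b * b) (by rw [← hb.2, p4])
        have h1 := k1 b⁻¹ (C.inv_mem hb.1) (by rw [inv_pow, hb.2, inv_one]) a⁻¹ (Q.inv_mem (c1 ha.1))
        set c := ⁅b⁻¹, a⁻¹⁆ with hc
        have zc := hZ c h1
        have e1 : a * b * (a * b) = (a * a) * (b * b) * c := by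
          have : b * c = c * b := comm_of_mem_centralizer zc.2 (c1 hb.1)
          calc a * b * (a * b) = a * a * b * c * b := by rw [hc]; simp [commutatorElement_def, mul_assoc]
            _ = a * a * b * (c * b) := by group
            _ = _ := by rw [← this]; group
        have e2 : (a * a) * (b * b) * c ∈ Om Q := mul_mem (mul_mem ⟨za, by rw [← ha.2, p4]⟩
          ⟨zb, by rw [← hb.2, p4]⟩) ⟨zc, h1⟩
        calc (a * b) ^ 4 = (a * b * (a * b)) * (a * b * (a * b)) := p4 _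
          _ = 1 := by rw [e1]; exact e2.2⟩
      inv_mem' := fun {a} ha => ⟨inv_mem ha.1, by rw [inv_pow, ha.2, inv_one]⟩ }
  refine ⟨D, ⟨fun x hx g => ⟨hCn.conj_mem x hx.1 g, by rw [conj_pow, hx.2]; simp⟩⟩,
    fun x hx => c1 hx.1, fun x hx => ⟨c5 ⟨hx.1.1, centralizer_anti c1 hx.1.2⟩, by
      calc x ^ 4 = (x * x) * (x * x) := p4 _
        _ = 1 := by rw [hx.2, mul_one]⟩, fun d hd => ?_, fun d hd q hq => ?_, fun y hy h => ?_⟩
  · have : d * d * (d * d) = 1 := by rw [← hd.2, p4]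
    exact ⟨hZ _ this, this⟩
  · exact ⟨hZ _ (k1 d hd.1 hd.2 q hq), k1 d hd.1 hd.2 q hq⟩
  · have hA : (Nat.card (zpowers y)).Coprime 2 := by
      rw [Nat.card_zpowers]; exact Nat.coprime_two_right.2 hy
    have h1 := L.le_centralizer_of_omega_four hA (hQ.to_le c1) le_normalizer_of_normal
      fun x hx h4 => h (show x ∈ D from ⟨hx, h4⟩)
    have h2 := L.le_centralizer_of_selfcent hA hQ le_normalizer_of_normal c1 c5 h1
    have h3 : zpowers y ≤ Q := (le_centralizer_iff.1 h2).trans hC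
    have h4 := (copA_of_p hQ hA).inf_eq_bot
    exact mem_bot.1 (h4 ▸ (⟨h3 (mem_zpowers y), mem_zpowers y⟩ : y ∈ Q ⊓ zpowers y))

end TY
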