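import Cfsg.Agent.TY.B

/-! TY.C: Thompson's theorem on soluble groups with one class of involutions: the core argument, II. -/

open Pointwise Cfsg Subgroup H9
open scoped commutatorElement

namespace TY

variable {G : Type*} [Group G]

/-- `V` = all involutions, central in `Q`; `D/V` elementary and centralized by `Q`. -/
structure St (Q V D : Subgroup G) : Prop where
  hQ : IsPGroup 2 Q
  mem : ∀ x : G, x ∈ V ↔ x * x = 1
  vc : V ≤ centralizer (Q : Set G)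
  vd : V ≤ D
  dq : D ≤ Q
  sq : ∀ d ∈ D, d * d ∈ V
  cm : ∀ d ∈ D, ∀ q ∈ Q, ⁅d, q⁆ ∈ V
  odd : ∀ y : G, Odd (orderOf y) → D ≤ centralizer (zpowers y : Set G) → y = 1

variable {Q V D : Subgroup G} [hVn : V.Normal] [hDn : D.Normal]

theorem St.k1 (h : St Q V D) {d f t : G} (hd : d ∈ D) (hf : f ∈ D) (ht : t ∈ centralizer (V : Set G))
    (hc : (f : G ⧸ V) * t = t * f) : (d⁻¹ * (t * d * t⁻¹)) * f = f * (d⁻¹ * (t * d * t⁻¹)) := by
  have a1 : ⁅d, f⁆ * t = t * ⁅d, f⁆ := comm_of_mem_centralizer ht (h.cm d hd f (h.dq hf))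
  have a2 : f⁻¹ * (t * f * t⁻¹) ∈ V := by
    rw [← QuotientGroup.eq]; simp [← hc]
  set v := f⁻¹ * (t * f * t⁻¹) with hv
  set d' := t * d * t⁻¹ with hd'
  have a3 : d'⁻¹ * v = v * d'⁻¹ :=
    comm_of_mem_centralizer (h.vc a2) (Q.inv_mem (h.dq (hDn.conj_mem d hd t)))
  have a4 : d * f * d⁻¹ * f⁻¹ = d' * f * d'⁻¹ * f⁻¹ := by
    calc d * f * d⁻¹ * f⁻¹ = (⁅d, f⁆ * t) * t⁻¹ := by simp [commutatorElement_def]
      _ = d' * f * (v * d'⁻¹) * v⁻¹ * f⁻¹ := by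
        rw [a1, hv, hd', commutatorElement_def]; group
      _ = _ := by rw [← a3]; group
  have a5 : d * f * d⁻¹ = d' * f * d'⁻¹ := mul_right_cancel a4
  calc d⁻¹ * d' * f = d⁻¹ * (d' * f * d'⁻¹) * d' := by group
    _ = _ := by rw [← a5]; group

variable [Finite G]

theorem St.cop (h : St Q V D) {y : G} (hy : Odd (orderOf y)) {K : Subgroup G} (hK : K ≤ D) :
    CopA (zpowers y) K := by
  haveI : Fact (Nat.Prime 2) := ⟨Nat.prime_two⟩
  exact copA_of_p' (h.hQ.to_le (hK.trans h.dq)) (by rw [Nat.card_zpowers]; exact Nat.coprime_two_right.2 hy)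

theorem St.two (h : St Q V D) : IsPGroup 2 (Cm V D ⊓ centralizer (V : Set G) : Subgroup G) := by
  intro g
  obtain ⟨j, m, hm, e⟩ := Nat.exists_eq_two_pow_mul_odd (orderOf_pos (g : G)).ne'
  refine ⟨j, Subtype.ext ?_⟩
  have ho : Odd (orderOf ((g : G) ^ 2 ^ j)) := by
    rw [orderOf_pow, e, Nat.gcd_eq_right (Dvd.intro m rfl), Nat.mul_div_cancel_left _ (by positivity)]
    exact hm
  have hz : zpowers ((g : G) ^ 2 ^ j) ≤ Cm V D ⊓ centralizer (V : Set G) :=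
    (zpowers_le).2 (pow_mem g.2 _)
  refine h.odd _ ho (cop_le_centralizer (D := V) le_normalizer_of_normal (h.cop ho le_rfl) ?_ ?_)
  · exact commutator_le.2 fun d hd a ha => comm_mem_iff.2 (mem_Cm.1 (hz ha).1 d hd).symm
  · exact le_centralizer_iff.1 (hz.trans inf_le_right)

/-- properties of `F = C_{D/V}(T)` -/
theorem St.propF (h : St Q V D) {T A : Subgroup G} (hT : IsPGroup 2 T) (hQT : Q ≤ T)
    (hTV : T ≤ centralizer (V : Set G)) (hn : ¬ T ≤ Cm V D) (hA : A ≤ normalizer (T : Set G))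
    (htr : ∀ x y : G, x ≠ 1 → x * x = 1 → y ≠ 1 → y * y = 1 → ∃ a ∈ A, a * x * a⁻¹ = y) :
    (∀ f ∈ D ⊓ Cm V T, ∀ g ∈ D ⊓ Cm V T, f * g = g * f) ∧ ∀ d ∈ D, ∀ t ∈ T, ⁅d, t⁆ ∈ D ⊓ Cm V T := by
  haveI : Fact (Nat.Prime 2) := ⟨Nat.prime_two⟩
  set F := D ⊓ Cm V T with hF
  set B := ⁅D, T⁆ ⊔ V with hB
  have b1 : B ≤ D := sup_le (commutator_le_left _ _) h.vd
  have b2 : B ≤ centralizer (F : Set G) := sup_le (commutator_le.2 fun d hd t ht =>
    mem_centralizer_iff.2 fun f hf => by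
      have := h.k1 (D.inv_mem hd) hf.1 (hTV ht) (mem_Cm.1 hf.2 t ht)
      simpa [commutatorElement_def, mul_assoc] using this.symm)
    (h.vc.trans (centralizer_anti (inf_le_left.trans h.dq)))
  have nB : ∀ X : Subgroup G, X ≤ normalizer (T : Set G) → X ≤ normalizer (B : Set G) := fun X hX =>
    normalizer_sup (normalizer_commutator le_normalizer_of_normal hX) le_normalizer_of_normal
  have b3 : V < B := lt_of_le_of_ne le_sup_right fun e => hn fun t ht => mem_Cm.2 fun d hd =>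
    (comm_mem_iff.1 (e ▸ (le_sup_left : ⁅D, T⁆ ≤ B) (commutator_mem_commutator hd ht))).symm
  obtain ⟨x, x1, x2, -, x4⟩ := L.exists_central_mod_pow hT b3 ((b1.trans h.dq).trans hQT)
    le_normalizer_of_normal (nB _ le_normalizer)
  have xF : x ∈ F ⊓ B := ⟨⟨b1 x1, mem_Cm.2 fun t ht => comm_mem_iff.1 (x4 t ht)⟩, x1⟩
  have nF : A ≤ normalizer ((F ⊓ B : Subgroup G) : Set G) :=
    normalizer_inf (normalizer_inf le_normalizer_of_normal (normalizer_Cm hA)) (nB _ hA)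
  have vF : V ≤ F ⊓ B := le_inf (le_inf h.vd (le_Cm _)) le_sup_right
  have onto : ∀ v ∈ V, ∃ f ∈ F ⊓ B, f * f = v := fun v hv => by
    by_cases e : v = 1
    · exact ⟨1, one_mem _, by rw [e, mul_one]⟩
    obtain ⟨a, ha, e'⟩ := htr (x * x) v (fun e => x2 ((h.mem x).2 e)) ((h.mem _).1 (h.sq x (b1 x1))) e
      ((h.mem v).1 hv)
    exact ⟨a * x * a⁻¹, conj_mem_of_le_normalizer nF ha xF, by rw [← e']; group⟩
  have self : ∀ d ∈ D, d ∈ centralizer ((F ⊓ B : Subgroup G) : Set G) → d ∈ F ⊓ B := fun d hd hc => by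
    obtain ⟨f, hf, e⟩ := onto _ (h.sq d hd)
    have c : f * d = d * f := comm_of_mem_centralizer hc hf
    have : f⁻¹ * d ∈ V := (h.mem _).2 (by
      calc f⁻¹ * d * (f⁻¹ * d) = f⁻¹ * f⁻¹ * (f * d) * f⁻¹ * d := by group
        _ = (f * f)⁻¹ * (d * d) := by rw [c]; group
        _ = 1 := by rw [e]; group)
    simpa using mul_mem hf (vF this)
  refine ⟨fun f hf g hg => ?_, fun d hd t ht => ?_⟩
  · have : f ∈ F ⊓ B := self f hf.1 (centralizer_anti inf_le_right (le_centralizer_iff.1 b2 hf))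
    exact (comm_of_mem_centralizer (b2 this.2) hg).symm
  · have h1 : ⁅d, t⁆ ∈ B := (le_sup_left : ⁅D, T⁆ ≤ B) (commutator_mem_commutator hd ht)
    exact (self _ (b1 h1) (centralizer_anti inf_le_left (b2 h1))).1

omit [Finite G] hDn in
theorem St.inj (h : St Q V D) {f g : G} (c : f * g = g * f) (e : f * f = g * g) : f⁻¹ * g ∈ V :=
  (h.mem _).2 (by
    calc f⁻¹ * g * (f⁻¹ * g) = f⁻¹ * f⁻¹ * (f * g) * f⁻¹ * g := by group
      _ = (f * f)⁻¹ * (g * g) := by rw [c]; group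
      _ = 1 := by rw [e]; group)

theorem St.exists_e (h : St Q V D) [Q.Normal] {T T₁ : Subgroup G} (h1 : T₁ ≤ T) (h2 : Q ≤ T₁)
    (F1 : ∀ f ∈ D ⊓ Cm V T, ∀ g ∈ D ⊓ Cm V T, f * g = g * f)
    (F2 : ∀ d ∈ D, ∀ t ∈ T, ⁅d, t⁆ ∈ D ⊓ Cm V T) {y : G} (y1 : y ≠ 1) (y2 : Odd (orderOf y))
    (y3 : y ∈ centralizer (V : Set G)) (y4 : y ∈ Cm Q T₁) : ∃ e ∈ D ⊓ Cm V T₁, e ∉ Cm V T := by
  by_contra hc
  push Not at hc
  have eF : D ⊓ Cm V T₁ = D ⊓ Cm V T := le_antisymm (fun e he => ⟨he.1, hc e he⟩)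
    fun e he => ⟨he.1, mem_Cm.2 fun t ht => mem_Cm.1 he.2 t (h1 ht)⟩
  have z1 : zpowers y ≤ centralizer (V : Set G) := (zpowers_le).2 y3
  have z2 : zpowers y ≤ Cm Q T₁ := (zpowers_le).2 y4
  have z3 : zpowers y ≤ normalizer (T₁ : Set G) := le_normalizer_of_commutator_le (K := T₁)
    (commutator_le.2 fun t ht a ha => h2 (comm_mem_iff.2 (mem_Cm.1 (z2 ha) t ht).symm)) le_rfl
  have z4 : zpowers y ≤ normalizer ((D ⊓ Cm V T : Subgroup G) : Set G) :=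
    eF ▸ normalizer_inf le_normalizer_of_normal (normalizer_Cm z3)
  have c1 : ∀ f ∈ D ⊓ Cm V T, ∀ a ∈ zpowers y, (f : G ⧸ V) * a = a * f := fun f hf a ha => by
    have a1 := conj_mem_of_le_normalizer z4 ha hf
    have a2 : f * f * a = a * (f * f) := comm_of_mem_centralizer (z1 ha) (h.sq f hf.1)
    have a3 := h.inj (F1 _ hf _ a1) (by
      calc f * f = (f * f * a) * a⁻¹ := by group
        _ = _ := by rw [a2]; group)
    rw [← QuotientGroup.eq] at a3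
    simp only [QuotientGroup.mk_mul, QuotientGroup.mk_inv] at a3
    exact (mul_inv_eq_iff_eq_mul.1 a3.symm).symm
  have c2 : D ⊓ Cm V T ≤ centralizer (zpowers y : Set G) := cop_le_centralizer (D := V) z4
    (h.cop y2 inf_le_left) (commutator_le.2 fun f hf a ha => comm_mem_iff.2 (c1 f hf a ha))
    (le_centralizer_iff.1 z1)
  refine y1 (h.odd y y2 (cop_le_centralizer le_normalizer_of_normal (h.cop y2 le_rfl)
    (commutator_le.2 fun d hd a ha => ?_) c2))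
  rw [← eF, ← commutatorElement_inv]
  refine inv_mem ⟨?_, mem_Cm.2 fun t ht => ?_⟩
  · exact D.mul_mem (hDn.conj_mem d hd a) (D.inv_mem hd)
  · have a1 := c1 _ (F2 _ (D.inv_mem hd) t (h1 ht)) a ha
    have a2 : ⁅a, t⁆ ∈ Q := comm_mem_iff.2 (mem_Cm.1 (z2 ha) t ht)
    have a3 := comm_mem_iff.1 (h.cm _ (hDn.conj_mem _ (hDn.conj_mem d hd a) t) _ a2)
    simp only [commutatorElement_def, QuotientGroup.mk_mul, QuotientGroup.mk_inv, inv_inv] at a1 a3 ⊢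
    generalize (a : G ⧸ V) = a at a1 a3
    generalize (d : G ⧸ V) = d at a1 a3
    generalize (t : G ⧸ V) = t at a1 a3
    have a4 : d⁻¹ * t * d * t⁻¹ = (a * d * a⁻¹)⁻¹ * t * (a * d * a⁻¹) * t⁻¹ := by
      calc d⁻¹ * t * d * t⁻¹ = (d⁻¹ * t * d * t⁻¹ * a) * a⁻¹ := by group
        _ = (a * d * a⁻¹)⁻¹ * (a * t * a⁻¹ * t⁻¹ * (t * (a * d * a⁻¹) * t⁻¹)) * (a * t * a⁻¹ * t⁻¹)⁻¹ := by
          rw [a1]; group
        _ = _ := by rw [← a3]; group
    calc a * d * a⁻¹ * d⁻¹ * t = (a * d * a⁻¹) * (d⁻¹ * t * d * t⁻¹) * t * d⁻¹ := by group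
      _ = _ := by rw [a4]; group

theorem St.core (h : St Q V D) [Q.Normal] {T T₁ A : Subgroup G} (hT : IsPGroup 2 T) (h1 : T₁ ≤ T)
    (h2 : Q ≤ T₁) (h3 : ∀ s ∈ T, ∀ t ∈ T, s ∉ T₁ → t ∉ T₁ → t⁻¹ * s ∈ T₁)
    (hTV : T ≤ centralizer (V : Set G)) (hn : ¬ T ≤ Cm V D) (hA : A ≤ normalizer (T : Set G))
    (hAo : (Nat.card A).Coprime 2)
    (htr : ∀ x y : G, x ≠ 1 → x * x = 1 → y ≠ 1 → y * y = 1 → ∃ a ∈ A, a * x * a⁻¹ = y)
    (htwo : ∃ x y : G, x ≠ y ∧ x ≠ 1 ∧ x * x = 1 ∧ y ≠ 1 ∧ y * y = 1)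
    {y : G} (y1 : y ≠ 1) (y2 : Odd (orderOf y))
    (y3 : y ∈ centralizer (V : Set G)) (y4 : y ∈ Cm Q T₁) : False := by
  haveI : Fact (Nat.Prime 2) := ⟨Nat.prime_two⟩
  obtain ⟨F1, F2⟩ := h.propF hT (h2.trans h1) hTV hn hA htr
  obtain ⟨e, ⟨e1, e2⟩, e3⟩ := h.exists_e h1 h2 F1 F2 y1 y2 y3 y4
  obtain ⟨t, ht, et⟩ : ∃ t ∈ T, ¬ (e : G ⧸ V) * t = t * e := by
    by_contra hc
    push Not at hc
    exact e3 (mem_Cm.2 hc)
  have t1 : t ∉ T₁ := fun h' => et (mem_Cm.1 e2 t h')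
  by_cases hB : A ≤ normalizer (T₁ : Set G)
  · obtain ⟨d, hd, hc⟩ := cop_fixed' hB (copA_of_p' (hT.to_le h1) hAo) (x := t) fun a ha => by
      have := h3 _ (conj_mem_of_le_normalizer hA ha ht) t ht
        (fun h' => t1 ((mem_normalizer_iff.1 (hB ha) t).2 h')) t1
      simpa [mul_assoc] using this
    obtain ⟨z, z1, z2, z3⟩ := exists_central (Q := T ⊓ centralizer (A : Set G)) (hT.to_le inf_le_left)
      fun e => t1 (by
        have : t * d = 1 := mem_bot.1 (e ▸ (⟨T.mul_mem ht (h1 hd), hc⟩ : t * d ∈ T ⊓ centralizer (A : Set G)))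
        rw [eq_inv_of_mul_eq_one_left this]; exact inv_mem hd)
    have k : ∀ x : G, x ≠ 1 → x * x = 1 → x = z := fun x x1 x2 => by
      obtain ⟨a, ha, e⟩ := htr z x z2 (by rw [← pow_two, z3]) x1 x2
      rw [← e, comm_of_mem_centralizer z1.1.2 ha]; group
    obtain ⟨x, x', a1, a2, a3, a4, a5⟩ := htwo
    exact a1 ((k x a2 a3).trans (k x' a4 a5).symm)
  obtain ⟨a₀, a1, a2⟩ := SetLike.not_le_iff_exists.1 hB
  set F := D ⊓ Cm V T with hF
  set f := e⁻¹ * (t * e * t⁻¹) with hf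
  have f1 : f ∈ F := by simpa [commutatorElement_def, mul_assoc, hf] using F2 _ (D.inv_mem e1) t ht
  have f2 : f ∉ V := fun h' => et (by
    rw [← QuotientGroup.eq] at h'
    simp only [QuotientGroup.mk_mul, QuotientGroup.mk_inv] at h'
    exact (mul_inv_eq_iff_eq_mul.1 h'.symm).symm)
  have f3 : f ∉ centralizer ({e} : Set G) := fun h' => f2 ((h.mem f).2 (by
    have c1 : f * e = e * f := mem_centralizer_singleton_iff.1 h'
    have c2 : e * e * t = t * (e * e) := comm_of_mem_centralizer (hTV ht) (h.sq e e1)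
    calc f * f = e⁻¹ * e⁻¹ * (e * (e * f) * f) := by group
      _ = e⁻¹ * e⁻¹ * (t * (e * e)) * t⁻¹ := by rw [← c1, hf]; group
      _ = 1 := by rw [← c2]; group))
  have vP : V ≤ centralizer ({e} : Set G) := fun v hv =>
    mem_centralizer_singleton_iff.2 (comm_of_mem_centralizer (h.vc hv) (h.dq e1)).symm
  let P : Subgroup G :=
    { carrier := {x | ∃ g ∈ F ⊓ centralizer ({e} : Set G), g * g = x}
      one_mem' := ⟨1, one_mem _, mul_one 1⟩
      mul_mem' := by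
        rintro _ _ ⟨a, ha, rfl⟩ ⟨b, hb, rfl⟩
        refine ⟨a * b, mul_mem ha hb, ?_⟩
        calc a * b * (a * b) = a * (b * a) * b := by group
          _ = _ := by rw [F1 b hb.1 a ha.1]; group
      inv_mem' := by
        rintro _ ⟨a, ha, rfl⟩
        exact ⟨a⁻¹, inv_mem ha, by group⟩ }
  have p1 : f * f ∉ P := by
    rintro ⟨g, hg, e'⟩
    have := mul_mem hg.2 (vP (h.inj (F1 g hg.1 f f1) e'))
    exact f3 (by simpa using this)
  have nF : A ≤ normalizer (F : Set G) := normalizer_inf le_normalizer_of_normal (normalizer_Cm hA)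
  have p2 : ∀ a ∈ A, a ∉ normalizer (T₁ : Set G) → a * (f * f) * a⁻¹ ∈ P := fun a ha hn' => by
    refine ⟨a * f * a⁻¹, ⟨conj_mem_of_le_normalizer nF ha f1, ?_⟩, by group⟩
    obtain ⟨s, s1, s2⟩ := SetLike.not_le_iff_exists.1
      (show ¬ cj a⁻¹ T₁ ≤ T₁ from fun h' => hn' (by simpa using inv_mem (mem_normalizer_of_cj_le h')))
    rw [mem_cj, inv_inv] at s1
    have s3 : s ∈ T := by simpa [mul_assoc] using conj_mem_of_le_normalizer' hA ha (h1 s1)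
    have c1 := mem_Cm.1 e2 _ (h3 s s3 t ht s2 t1)
    have c2 := h.k1 (hDn.conj_mem e e1 a) e1 (hTV (h1 s1)) (mem_Cm.1 e2 _ s1)
    have c3 : ((a * e * a⁻¹)⁻¹ * (a * s * a⁻¹ * (a * e * a⁻¹) * (a * s * a⁻¹)⁻¹))⁻¹ * (a * f * a⁻¹) ∈ V := by
      rw [← QuotientGroup.eq, hf]
      simp only [QuotientGroup.mk_mul, QuotientGroup.mk_inv] at c1 ⊢
      calc _ = (a : G ⧸ V) * (e : G ⧸ V)⁻¹ * t * ((t : G ⧸ V)⁻¹ * s * e) * (s : G ⧸ V)⁻¹ * (a : G ⧸ V)⁻¹ := by group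
        _ = _ := by rw [← c1]; group
    have := mul_mem (mem_centralizer_singleton_iff.2 c2) (vP c3)
    rwa [mul_inv_cancel_left] at this
  have ffV : f * f ∈ V := h.sq f f1.1
  have p3 : ∀ v ∈ V, v ∉ P → a₀ * v * a₀⁻¹ ∈ P := fun v hv hP => by
    obtain ⟨b, hb, e'⟩ := htr (f * f) v (fun e => f2 ((h.mem f).2 e)) ((h.mem _).1 ffV)
      (fun e => hP (e ▸ P.one_mem)) ((h.mem v).1 hv)
    have b1 : b ∈ normalizer (T₁ : Set G) := by
      by_contra hc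
      exact hP (e' ▸ p2 b hb hc)
    have := p2 (a₀ * b) (mul_mem a1 hb) fun h' => a2 (by simpa using mul_mem h' (inv_mem b1))
    rw [← e']
    simpa [mul_assoc] using this
  have p4 : ∀ v ∈ V, a₀ * v * a₀⁻¹ ∈ P := fun v hv => by
    by_cases hP : v ∈ P
    · have := P.mul_mem (p3 _ (mul_mem hv ffV) fun h' => p1 (by simpa using P.mul_mem (P.inv_mem hP) h'))
        (P.inv_mem (p3 _ ffV p1))
      simpa [mul_assoc] using this
    · exact p3 v hv hP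
  have := p4 _ (hVn.conj_mem _ ffV a₀⁻¹)
  exact p1 (by simpa [mul_assoc] using this)

end TY
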